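import Mathlib
import Cfsg.Agent.H80.Fpf.Abel

/-!
# Fixed point free primes of `PSL_n(q)`: the stabiliser of a hyperplane (helper679, task 1479, for S4228)

`κ` a finite index set with at least two elements, `SL(κ ⊕ Unit, F)`.

* `emb : GL κ F →* SL (κ ⊕ Unit) F`, `A ↦ diag(A, det A⁻¹)`, `uni v` the unipotent radical;
* `not_may_of_gl` : `¬ May r PSL(κ ⊕ Unit, F)` if `r ∣ |GL κ F|`, `r ≠ l`, and the multiplier is prime to `l`;
* `not_may_char` : `¬ May l PSL(κ ⊕ Unit, F)`.
-/

set_option autoImplicit false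
set_option linter.unusedSectionVars false

namespace Cfsg.Agent.H679.Fpf

open Matrix Cfsg.Agent.H80.Fpf

universe u v

section Reindex

variable {ι : Type u} {ι' : Type v} [Fintype ι] [DecidableEq ι] [Fintype ι'] [DecidableEq ι'] {F : Type} [Field F]

/-- Reindexing of `SL`. -/
def slReindex (e : ι ≃ ι') : SpecialLinearGroup ι F ≃* SpecialLinearGroup ι' F where
  toFun A := ⟨Matrix.reindex e e A.1, by rw [Matrix.det_reindex_self]; exact A.2⟩
  invFun A := ⟨Matrix.reindex e.symm e.symm A.1, by rw [Matrix.det_reindex_self]; exact A.2⟩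
  left_inv A := Subtype.ext (by ext i j; simp)
  right_inv A := Subtype.ext (by ext i j; simp)
  map_mul' A B := Subtype.ext (by
    show Matrix.reindex e e (A.1 * B.1) = Matrix.reindex e e A.1 * Matrix.reindex e e B.1
    exact map_mul (Matrix.reindexAlgEquiv F F e) A.1 B.1)

theorem map_center_equiv {G : Type u} {H : Type v} [Group G] [Group H] (e : G ≃* H) :
    (Subgroup.center G).map e.toMonoidHom = Subgroup.center H := by
  ext x
  constructor
  · rintro ⟨z, hz, rfl⟩
    have hz' := Subgroup.mem_center_iff.1 hz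
    rw [Subgroup.mem_center_iff]
    intro y
    obtain ⟨w, rfl⟩ := e.surjective y
    show e w * e z = e z * e w
    rw [← map_mul, hz' w, map_mul]
  · intro hx
    rw [Subgroup.mem_center_iff] at hx
    refine ⟨e.symm x, Subgroup.mem_center_iff.2 fun y => ?_, e.apply_symm_apply x⟩
    apply e.injective
    rw [map_mul, map_mul, e.apply_symm_apply, hx]

/-- Reindexing of `PSL`. -/
noncomputable def pslReindex (e : ι ≃ ι') : ProjectiveSpecialLinearGroup ι F ≃* ProjectiveSpecialLinearGroup ι' F :=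
  QuotientGroup.congr _ _ (slReindex e) (map_center_equiv _)

end Reindex

section Block

variable {κ : Type} [Fintype κ] [DecidableEq κ] {F : Type} [Field F]

/-- `A ↦ diag(A, det A⁻¹)` -/
def emb (κ : Type) [Fintype κ] [DecidableEq κ] (F : Type) [Field F] : GL κ F →* SpecialLinearGroup (κ ⊕ Unit) F where
  toFun A := ⟨Matrix.fromBlocks A.1 0 0 ((((Matrix.GeneralLinearGroup.det A)⁻¹ : Fˣ) : F) • (1 : Matrix Unit Unit F)),
    by
      rw [Matrix.det_fromBlocks_zero₂₁, Matrix.det_smul, Matrix.det_one, Fintype.card_unit, pow_one, mul_one,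
        ← Matrix.GeneralLinearGroup.val_det_apply]
      exact Units.mul_inv _⟩
  map_one' := Subtype.ext (by
    show Matrix.fromBlocks _ _ _ _ = (1 : Matrix (κ ⊕ Unit) (κ ⊕ Unit) F)
    rw [map_one, inv_one, Units.val_one, Units.val_one, one_smul, Matrix.fromBlocks_one])
  map_mul' A B := Subtype.ext (by
    show Matrix.fromBlocks _ _ _ _ = Matrix.fromBlocks _ _ _ _ * Matrix.fromBlocks _ _ _ _
    rw [Matrix.fromBlocks_multiply, map_mul, mul_inv, Units.val_mul, Units.val_mul]
    simp [mul_comm, smul_smul])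

theorem coe_emb (A : GL κ F) : (emb κ F A).1 =
    Matrix.fromBlocks A.1 0 0 ((((Matrix.GeneralLinearGroup.det A)⁻¹ : Fˣ) : F) • (1 : Matrix Unit Unit F)) := rfl

/-- The unipotent radical of the stabiliser of a hyperplane. -/
def uni (κ : Type) [Fintype κ] [DecidableEq κ] (F : Type) [Field F] :
    Multiplicative (κ → F) →* SpecialLinearGroup (κ ⊕ Unit) F where
  toFun v := ⟨Matrix.fromBlocks 1 (Matrix.of fun i _ => v.toAdd i) 0 1, by
    rw [Matrix.det_fromBlocks_zero₂₁, Matrix.det_one, Matrix.det_one, mul_one]⟩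
  map_one' := Subtype.ext (by
    show Matrix.fromBlocks _ _ _ _ = (1 : Matrix (κ ⊕ Unit) (κ ⊕ Unit) F)
    rw [← Matrix.fromBlocks_one]
    congr 1)
  map_mul' v w := Subtype.ext (by
    show Matrix.fromBlocks _ _ _ _ = Matrix.fromBlocks _ _ _ _ * Matrix.fromBlocks _ _ _ _
    rw [Matrix.fromBlocks_multiply]
    simp only [Matrix.one_mul, Matrix.mul_one, Matrix.mul_zero, Matrix.zero_mul, add_zero, zero_add]
    congr 1
    ext i j
    simp [add_comm])

theorem coe_uni (v : Multiplicative (κ → F)) : (uni κ F v).1 =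
    Matrix.fromBlocks 1 (Matrix.of fun i _ => v.toAdd i) 0 1 := rfl

/-- A central element of the radical is trivial. -/
theorem uni_center [Nonempty κ] {v : Multiplicative (κ → F)}
    (h : uni κ F v ∈ Subgroup.center (SpecialLinearGroup (κ ⊕ Unit) F)) : v = 1 := by
  obtain ⟨c, -, hc⟩ := Matrix.SpecialLinearGroup.mem_center_iff.1 h
  rw [coe_uni] at hc
  apply Multiplicative.toAdd.injective
  funext i
  have h1 := congrFun (congrFun hc (Sum.inl i)) (Sum.inr ())
  simp at h1
  exact h1.symm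

/-- The action of `emb A` on the radical. -/
theorem emb_conj (A : GL κ F) (v : κ → F) : emb κ F A * uni κ F (Multiplicative.ofAdd v) =
    uni κ F (Multiplicative.ofAdd ((Matrix.GeneralLinearGroup.det A : F) • (A.1 *ᵥ v))) * emb κ F A := by
  apply Subtype.ext
  show (emb κ F A).1 * (uni κ F _).1 = (uni κ F _).1 * (emb κ F A).1
  rw [coe_emb, coe_uni, coe_uni, Matrix.fromBlocks_multiply, Matrix.fromBlocks_multiply]
  simp only [Matrix.one_mul, Matrix.mul_one, Matrix.mul_zero, Matrix.zero_mul, add_zero, zero_add]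
  congr 1
  ext i j
  have hd : ((Matrix.GeneralLinearGroup.det A : Fˣ) : F) ≠ 0 := Units.ne_zero _
  simp only [Matrix.mul_smul, Matrix.mul_one, Matrix.smul_apply, Matrix.of_apply, toAdd_ofAdd, Pi.smul_apply,
    smul_eq_mul, Units.val_inv_eq_inv_val]
  rw [inv_mul_cancel_left₀ hd]
  rfl

/-- The projection. -/
abbrev pr (ι : Type) [Fintype ι] [DecidableEq ι] (F : Type) [Field F] :
    SpecialLinearGroup ι F →* ProjectiveSpecialLinearGroup ι F := QuotientGroup.mk' _

theorem pr_eq_one {ι : Type} [Fintype ι] [DecidableEq ι] {x : SpecialLinearGroup ι F} :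
    pr ι F x = 1 ↔ x ∈ Subgroup.center (SpecialLinearGroup ι F) := QuotientGroup.eq_one_iff x

/-- `emb A` acts nontrivially on the radical. -/
theorem not_may_of_emb [Finite F] [Nonempty κ] [IsSimpleGroup (ProjectiveSpecialLinearGroup (κ ⊕ Unit) F)]
    {r l m : ℕ} (hr : r.Prime) (hr2 : r ≠ 2)
    (hl : l.Prime) [CharP F l] (hm : MultDvd (ProjectiveSpecialLinearGroup (κ ⊕ Unit) F) m) (hlm : ¬ l ∣ m)
    {A : GL κ F} (hA : A ^ r = 1) {v : κ → F}
    (hv : (Matrix.GeneralLinearGroup.det A : F) • (A.1 *ᵥ v) ≠ v) :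
    ¬ May r (ProjectiveSpecialLinearGroup (κ ⊕ Unit) F) := by
  have : Fact r.Prime := ⟨hr⟩
  have : Finite (SpecialLinearGroup (κ ⊕ Unit) F) := inferInstance
  have : Finite (ProjectiveSpecialLinearGroup (κ ⊕ Unit) F) := inferInstance
  have hne : pr (κ ⊕ Unit) F (emb κ F A) * pr (κ ⊕ Unit) F (uni κ F (Multiplicative.ofAdd v)) ≠
      pr (κ ⊕ Unit) F (uni κ F (Multiplicative.ofAdd v)) * pr (κ ⊕ Unit) F (emb κ F A) := by
    intro h
    rw [← map_mul, emb_conj, map_mul] at h
    have h1 := mul_right_cancel h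
    rw [← mul_inv_eq_one, ← map_inv, ← map_mul, ← map_inv, ← map_mul, pr_eq_one] at h1
    have h2 := uni_center h1
    apply hv
    rw [mul_inv_eq_one] at h2
    exact Multiplicative.ofAdd.injective h2
  have hx : orderOf (pr (κ ⊕ Unit) F (emb κ F A)) = r := by
    apply orderOf_eq_prime
    · rw [← map_pow, ← map_pow, hA, map_one, map_one]
    · intro h
      rw [h, one_mul, mul_one] at hne
      exact hne rfl
  refine not_may_of_act_abelian (l := l) hr hr2 hl hm hlm
    (K := ((uni κ F).range).map (pr (κ ⊕ Unit) F)) ?_ ?_ hx ?_ ⟨_, ⟨_, rfl⟩, rfl⟩ hne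
  · apply IsPGroup.map
    rintro ⟨_, w, rfl⟩
    refine ⟨1, Subtype.ext ?_⟩
    show (uni κ F w) ^ l ^ 1 = 1
    rw [pow_one, ← map_pow]
    have h1 : w ^ l = 1 := by
      apply Multiplicative.toAdd.injective
      rw [toAdd_pow, toAdd_one]
      funext i
      rw [Pi.smul_apply, Pi.zero_apply, nsmul_eq_mul, CharP.cast_eq_zero, zero_mul]
    rw [h1, map_one]
  · rintro _ ⟨_, ⟨a, rfl⟩, rfl⟩ _ ⟨_, ⟨b, rfl⟩, rfl⟩
    rw [← map_mul, ← map_mul, ← map_mul, ← map_mul, mul_comm]
  · rintro _ ⟨_, ⟨a, rfl⟩, rfl⟩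
    refine ⟨_, ⟨Multiplicative.ofAdd ((Matrix.GeneralLinearGroup.det A : F) • (A.1 *ᵥ a.toAdd)), rfl⟩, ?_⟩
    rw [eq_mul_inv_iff_mul_eq, ← map_mul, ← map_mul]
    congr 1
    exact (emb_conj A a.toAdd).symm

/-- **`¬ May r PSL(κ ⊕ Unit, F)` if `r` divides `|GL(κ, F)|`**, `r` odd and not the characteristic. -/
theorem not_may_of_gl [Finite F] [Nontrivial κ] [IsSimpleGroup (ProjectiveSpecialLinearGroup (κ ⊕ Unit) F)]
    {r l m : ℕ} (hr : r.Prime) (hr2 : r ≠ 2)
    (hl : l.Prime) [CharP F l] (hm : MultDvd (ProjectiveSpecialLinearGroup (κ ⊕ Unit) F) m) (hlm : ¬ l ∣ m)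
    (hd : r ∣ Nat.card (GL κ F)) :
    ¬ May r (ProjectiveSpecialLinearGroup (κ ⊕ Unit) F) := by
  have : Fact r.Prime := ⟨hr⟩
  by_cases h1 : r ∣ Nat.card Fˣ
  · -- `A = diag(a, 1, …, 1)`
    obtain ⟨a, ha⟩ := exists_prime_orderOf_dvd_card' r h1
    obtain ⟨i, j, hij⟩ := exists_pair_ne κ
    let D : GL κ F := Matrix.GeneralLinearGroup.mkOfDetNeZero (Matrix.diagonal (Function.update 1 i (a : F))) (by
      rw [Matrix.det_diagonal, Finset.prod_update_of_mem (Finset.mem_univ _)]
      simp)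
    have hD : D.1 = Matrix.diagonal (Function.update 1 i (a : F)) := rfl
    have hdet : ((Matrix.GeneralLinearGroup.det D : Fˣ) : F) = a := by
      rw [Matrix.GeneralLinearGroup.val_det_apply, hD, Matrix.det_diagonal,
        Finset.prod_update_of_mem (Finset.mem_univ _)]
      simp
    refine not_may_of_emb (A := D) (v := Pi.single j 1) hr hr2 hl hm hlm ?_ ?_
    · apply Units.ext
      rw [Units.val_pow_eq_pow_val, hD, Matrix.diagonal_pow, Units.val_one, ← Matrix.diagonal_one]
      congr 1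
      funext k
      by_cases hk : k = i
      · subst hk
        rw [Pi.pow_apply, Function.update_self, ← Units.val_pow_eq_pow_val, ← ha, pow_orderOf_eq_one, Units.val_one]
      · rw [Pi.pow_apply, Function.update_of_ne hk, Pi.one_apply, one_pow]
    · intro h
      have h2 := congrFun h j
      rw [Pi.smul_apply, hdet, hD, Matrix.mulVec_diagonal, Pi.single_eq_same, Function.update_of_ne hij.symm,
        Pi.one_apply, mul_one, smul_eq_mul, mul_one] at h2
      have h3 : a = 1 := Units.ext h2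
      rw [h3, orderOf_one] at ha
      exact hr.one_lt.ne ha
  · have : Finite (GL κ F) := inferInstance
    obtain ⟨A, hA⟩ := exists_prime_orderOf_dvd_card' r hd
    have hAr : A ^ r = 1 := by rw [← hA, pow_orderOf_eq_one]
    by_cases hv : ∃ v : κ → F, (Matrix.GeneralLinearGroup.det A : F) • (A.1 *ᵥ v) ≠ v
    · obtain ⟨v, hv⟩ := hv
      exact not_may_of_emb hr hr2 hl hm hlm hAr hv
    · exfalso
      push Not at hv
      apply h1
      -- `A` is the scalar `(det A)⁻¹`
      set d : Fˣ := Matrix.GeneralLinearGroup.det A with hd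
      have h2 : A.1 = ((d⁻¹ : Fˣ) : F) • (1 : Matrix κ κ F) := by
        apply Matrix.ext_of_mulVec_single
        intro i
        rw [Matrix.smul_mulVec, Matrix.one_mulVec]
        have h3 := hv (Pi.single i 1)
        have h4 : ((d⁻¹ : Fˣ) : F) • ((d : F) • (A.1 *ᵥ Pi.single i 1)) = ((d⁻¹ : Fˣ) : F) • Pi.single i 1 := by
          rw [h3]
        rw [smul_smul, Units.inv_mul, one_smul] at h4
        exact h4
      have h5 : (d⁻¹) ^ r = 1 := by
        rw [hd, ← map_inv, ← map_pow, inv_pow, hAr, inv_one, map_one]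
      have h6 : d⁻¹ ≠ 1 := by
        intro h6
        rw [h6, Units.val_one, one_smul] at h2
        have h7 : A = 1 := Units.ext h2
        rw [h7, orderOf_one] at hA
        exact hr.one_lt.ne hA
      rw [← orderOf_eq_prime h5 h6]
      exact orderOf_dvd_natCard _

/-- **`¬ May l PSL(κ ⊕ Unit, F)`** for the characteristic `l`. -/
theorem not_may_char [Finite F] [Nontrivial κ] {l : ℕ} (hl : l.Prime) (hl2 : l ≠ 2) [CharP F l] :
    ¬ May l (ProjectiveSpecialLinearGroup (κ ⊕ Unit) F) := by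
  have : Fact l.Prime := ⟨hl⟩
  have : Finite (ProjectiveSpecialLinearGroup (κ ⊕ Unit) F) := inferInstance
  obtain ⟨i, j, hij⟩ := exists_pair_ne κ
  have hpow : ∀ w : Multiplicative (κ → F), w ^ l = 1 := by
    intro w
    apply Multiplicative.toAdd.injective
    rw [toAdd_pow, toAdd_one]
    funext i
    rw [Pi.smul_apply, Pi.zero_apply, nsmul_eq_mul, CharP.cast_eq_zero, zero_mul]
  have hord : ∀ k : κ, orderOf (pr (κ ⊕ Unit) F (uni κ F (Multiplicative.ofAdd (Pi.single k (1 : F))))) = l := by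
    intro k
    apply orderOf_eq_prime
    · rw [← map_pow, ← map_pow, hpow, map_one, map_one]
    · rw [Ne, pr_eq_one]
      intro h
      have h1 := congrFun (Multiplicative.ofAdd.injective (uni_center h)) k
      rw [Pi.single_eq_same] at h1
      exact one_ne_zero h1
  refine not_may_of_comm hl hl2 (a := pr (κ ⊕ Unit) F (uni κ F (Multiplicative.ofAdd (Pi.single i (1 : F)))))
    (b := pr (κ ⊕ Unit) F (uni κ F (Multiplicative.ofAdd (Pi.single j (1 : F))))) ?_ (hord i) (hord j) ?_
  · rw [← map_mul, ← map_mul, mul_comm, map_mul, map_mul]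
  · intro h
    obtain ⟨k, hk⟩ := Subgroup.mem_zpowers_iff.1 h
    rw [← map_zpow, ← map_zpow] at hk
    have h1 : pr (κ ⊕ Unit) F (uni κ F ((Multiplicative.ofAdd (Pi.single i (1 : F))) ^ k *
        (Multiplicative.ofAdd (Pi.single j (1 : F)))⁻¹)) = 1 := by
      rw [map_mul, map_mul, hk, map_inv, map_inv, mul_inv_cancel]
    have h2 := uni_center (pr_eq_one.1 h1)
    rw [mul_inv_eq_one] at h2
    have h3 := congrFun (congrArg Multiplicative.toAdd h2) j
    rw [toAdd_zpow, toAdd_ofAdd, toAdd_ofAdd, Pi.smul_apply, Pi.single_eq_same, Pi.single_eq_of_ne hij.symm,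
      smul_zero] at h3
    exact zero_ne_one h3

end Block

end Cfsg.Agent.H679.Fpf
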