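import Mathlib
import Cfsg.Agent.H679.Fpf.Hyp
import Cfsg.Agent.H80.Fpf.Crit
import Cfsg.Agent.LieExceptional.SingerCentralizer
import Cfsg.Agent.S0280

/-!
# The normaliser of a subgroup of prime order acting irreducibly in `PSL_n(q)` (helper679, task 1479, for S4228)

`card_norm_le` : if `q` has order `n` modulo the prime `r` and `x ∈ PSL_n(q)` has order `r`, then
`|N(⟨x⟩)| ≤ n (1 + q + ⋯ + q ^ (n - 1))`.
-/

set_option autoImplicit false
set_option linter.unusedSectionVars false

namespace Cfsg.Agent.H679.Fpf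

open Matrix Cfsg.Agent.H80.Fpf Cfsg.Agent.LieExceptional.SingerCentralizer Module

/-- `q` has order `n` modulo `r`. -/
def OrdN (q n r : ℕ) : Prop := r ∣ q ^ n - 1 ∧ ∀ d, 0 < d → d < n → ¬ r ∣ q ^ d - 1

section

variable {F : Type} [Field F] [Fintype F] {n : ℕ}

/-- The action on the natural module. -/
def toEnd (n : ℕ) (F : Type) [Field F] : SpecialLinearGroup (Fin n) F →* Module.End F (Fin n → F) where
  toFun A := Matrix.toLin' A.1
  map_one' := by
    show Matrix.toLin' (1 : Matrix (Fin n) (Fin n) F) = 1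
    rw [Matrix.toLin'_one]; rfl
  map_mul' A B := by
    show Matrix.toLin' (A.1 * B.1) = _
    rw [Matrix.toLin'_mul]; rfl

theorem toEnd_injective : Function.Injective (toEnd n F) := by
  intro A B h
  exact Subtype.ext (Matrix.toLin'.injective h)

theorem not_dvd_center (hn : 2 ≤ n) {r : ℕ} (h : OrdN (Fintype.card F) n r) :
    ¬ r ∣ Nat.card (Subgroup.center (SpecialLinearGroup (Fin n) F)) := by
  rw [Cfsg.Agent.S0280.card_center_SL (by omega)]
  intro hd
  apply h.2 1 one_pos (by omega)
  rw [pow_one]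
  exact hd.trans (Nat.gcd_dvd_right _ _)

theorem conj_eq_of_pr (hn : 2 ≤ n) {r : ℕ} (hr : r.Prime) (h : OrdN (Fintype.card F) n r)
    {z y : SpecialLinearGroup (Fin n) F} (hz : z ^ r = 1) {k : ℤ}
    (hy : pr (Fin n) F (y * z * y⁻¹) = pr (Fin n) F (z ^ k)) : y * z * y⁻¹ = z ^ k := by
  set c : SpecialLinearGroup (Fin n) F := (z ^ k)⁻¹ * (y * z * y⁻¹) with hc
  have h1 : c ∈ Subgroup.center (SpecialLinearGroup (Fin n) F) := by
    rw [← pr_eq_one, hc, map_mul, hy, map_inv, inv_mul_cancel]
  have h2 : y * z * y⁻¹ = z ^ k * c := by rw [hc, mul_inv_cancel_left]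
  have hcomm : Commute (z ^ k) c := (Subgroup.mem_center_iff.1 h1 (z ^ k))
  have h3 : c ^ r = 1 := by
    have h4 : (z ^ k * c) ^ r = 1 := by rw [← h2, conj_pow, hz, mul_one, mul_inv_cancel]
    rw [hcomm.mul_pow, ← zpow_natCast, ← _root_.zpow_mul, mul_comm k, _root_.zpow_mul, zpow_natCast, hz, _root_.one_zpow, one_mul] at h4
    exact h4
  have h5 : c = 1 := by
    by_contra hne
    have : Fact r.Prime := ⟨hr⟩
    apply not_dvd_center hn h
    have h6 : orderOf (⟨c, h1⟩ : Subgroup.center (SpecialLinearGroup (Fin n) F)) = r := by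
      rw [← Subgroup.orderOf_coe]
      exact orderOf_eq_prime h3 hne
    rw [← h6]
    exact orderOf_dvd_natCard _
  rw [h2, h5, mul_one]

theorem exists_lift_psl (hn : 2 ≤ n) {r : ℕ} (hr : r.Prime) (h : OrdN (Fintype.card F) n r)
    {x : ProjectiveSpecialLinearGroup (Fin n) F} (hx : orderOf x = r) :
    ∃ z : SpecialLinearGroup (Fin n) F, pr (Fin n) F z = x ∧ orderOf z = r := by
  have : Fact r.Prime := ⟨hr⟩
  obtain ⟨g, rfl⟩ := QuotientGroup.mk'_surjective _ x
  have h1 : g ^ r ∈ Subgroup.center (SpecialLinearGroup (Fin n) F) := by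
    rw [← pr_eq_one, map_pow, ← hx, pow_orderOf_eq_one]
  set m := Nat.card (Subgroup.center (SpecialLinearGroup (Fin n) F)) with hm
  have hcop : m.Coprime r := ((Nat.Prime.coprime_iff_not_dvd hr).2 (not_dvd_center hn h)).symm
  have h2 : (g ^ m) ^ r = 1 := by
    rw [← pow_mul, mul_comm, pow_mul]
    have h3 : (⟨g ^ r, h1⟩ : Subgroup.center (SpecialLinearGroup (Fin n) F)) ^ m = 1 := by
      rw [hm]; exact pow_card_eq_one'
    exact congrArg (fun z : Subgroup.center (SpecialLinearGroup (Fin n) F) => (z : SpecialLinearGroup (Fin n) F)) h3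
  obtain ⟨c, hc⟩ := Nat.exists_mul_mod_eq_one_of_coprime hcop hr.one_lt
  have h4 : pr (Fin n) F (g ^ (m * c)) = pr (Fin n) F g := by
    rw [map_pow]
    have h5 : m * c ≡ 1 [MOD orderOf (pr (Fin n) F g)] := by
      have hx' : orderOf (pr (Fin n) F g) = r := hx
      rw [hx', Nat.ModEq, hc.2, Nat.mod_eq_of_lt hr.one_lt]
    have h6 := pow_eq_pow_iff_modEq.2 h5
    rw [h6, pow_one]
  refine ⟨g ^ (m * c), h4, orderOf_eq_prime ?_ ?_⟩
  · rw [pow_mul, ← pow_mul, mul_comm c r, pow_mul, h2, one_pow]
  · intro h7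
    rw [h7, map_one] at h4
    have hx' : orderOf (pr (Fin n) F g) = r := hx
    rw [← h4, orderOf_one] at hx'
    exact hr.one_lt.ne hx'

/-- **The order of the normaliser.** -/
theorem card_norm_le (hn : 2 ≤ n) {r : ℕ} (hr : r.Prime) (h : OrdN (Fintype.card F) n r)
    {x : ProjectiveSpecialLinearGroup (Fin n) F} (hx : orderOf x = r) :
    Nat.card (Subgroup.normalizer (Subgroup.zpowers x : Set (ProjectiveSpecialLinearGroup (Fin n) F))) ≤
      n * ∑ i ∈ Finset.range n, Fintype.card F ^ i := by
  have : Finite (ProjectiveSpecialLinearGroup (Fin n) F) := inferInstance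
  obtain ⟨z, rfl, hz⟩ := exists_lift_psl hn hr h hx
  have hzr : z ^ r = 1 := by rw [← hz, pow_orderOf_eq_one]
  have hfr : finrank F (Fin n → F) = n := by rw [Module.finrank_fin_fun]
  have hpn : r ∣ Nat.card F ^ finrank F (Fin n → F) - 1 := by
    rw [hfr, Nat.card_eq_fintype_card]; exact h.1
  have hpd : ∀ d, 0 < d → d < finrank F (Fin n → F) → ¬ r ∣ Nat.card F ^ d - 1 := by
    rw [hfr, Nat.card_eq_fintype_card]; exact h.2
  have hgp : toEnd n F z ^ r = 1 := by rw [← map_pow, hzr, map_one]
  have hg1 : toEnd n F z ≠ 1 := by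
    intro h1
    have h2 : z = 1 := toEnd_injective (by rw [h1, map_one])
    rw [h2, orderOf_one] at hz
    exact hr.one_lt.ne hz
  set N := Subgroup.normalizer (Subgroup.zpowers (pr (Fin n) F z) : Set (ProjectiveSpecialLinearGroup (Fin n) F))
    with hN
  set C := Subgroup.centralizer ({pr (Fin n) F z} : Set (ProjectiveSpecialLinearGroup (Fin n) F)) with hC
  let y : ProjectiveSpecialLinearGroup (Fin n) F → SpecialLinearGroup (Fin n) F := fun s =>
    (QuotientGroup.mk'_surjective _ s).choose
  have hy : ∀ s, pr (Fin n) F (y s) = s := fun s => (QuotientGroup.mk'_surjective _ s).choose_spec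
  have hyN : ∀ s ∈ N, ∃ k : ℤ, y s * z * (y s)⁻¹ = z ^ k := by
    intro s hs
    have h1 := (Subgroup.mem_normalizer_iff.1 hs (pr (Fin n) F z)).1 (Subgroup.mem_zpowers _)
    obtain ⟨k, hk⟩ := Subgroup.mem_zpowers_iff.1 h1
    refine ⟨k, conj_eq_of_pr hn hr h hzr ?_⟩
    rw [map_mul, map_mul, map_inv, hy, map_zpow, hk]
  have hyC : ∀ s ∈ C, Commute (toEnd n F (y s)) (toEnd n F z) := by
    intro s hs
    have h1 := Subgroup.mem_centralizer_singleton_iff.1 hs
    have h2 : y s * z * (y s)⁻¹ = z ^ (1 : ℤ) := by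
      apply conj_eq_of_pr hn hr h hzr
      rw [map_mul, map_mul, map_inv, hy, zpow_one, h1, mul_inv_cancel_right]
    rw [zpow_one, mul_inv_eq_iff_eq_mul] at h2
    show toEnd n F (y s) * toEnd n F z = toEnd n F z * toEnd n F (y s)
    rw [← map_mul, ← map_mul, h2]
  rw [Subgroup.card_eq_card_quotient_mul_card_subgroup (C.subgroupOf N)]
  have hcard1 : Nat.card (C.subgroupOf N) ≤ Nat.card C :=
    Nat.card_le_card_of_injective (fun s => (⟨(s : N), s.2⟩ : C)) (by
      intro a b hab
      exact Subtype.ext (Subtype.ext (congrArg (fun c : C => (c : ProjectiveSpecialLinearGroup (Fin n) F)) hab)))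
  refine Nat.mul_le_mul ?_ (hcard1.trans ?_)
  · have h1 := card_conj_le hr hgp hg1 hpn hpd
      (fun i : N ⧸ C.subgroupOf N => toEnd n F (y ((i.out : N) : ProjectiveSpecialLinearGroup (Fin n) F) * z * (y ((i.out : N) : ProjectiveSpecialLinearGroup (Fin n) F))⁻¹)) ?_ ?_ ?_
    · rwa [hfr] at h1
    · intro i j hij
      have h3 : y ((i.out : N) : ProjectiveSpecialLinearGroup (Fin n) F) * z * (y ((i.out : N) : ProjectiveSpecialLinearGroup (Fin n) F))⁻¹ = y ((j.out : N) : ProjectiveSpecialLinearGroup (Fin n) F) * z * (y ((j.out : N) : ProjectiveSpecialLinearGroup (Fin n) F))⁻¹ := toEnd_injective hij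
      have h3' := congrArg (pr (Fin n) F) h3
      rw [map_mul, map_mul, map_inv, map_mul, map_mul, map_inv, hy, hy] at h3'
      rw [← QuotientGroup.out_eq' i, ← QuotientGroup.out_eq' j]
      apply QuotientGroup.eq.2
      rw [Subgroup.mem_subgroupOf]
      apply Subgroup.mem_centralizer_singleton_iff.2
      set s : ProjectiveSpecialLinearGroup (Fin n) F := ((i.out : N) : ProjectiveSpecialLinearGroup (Fin n) F) with hs
      set t : ProjectiveSpecialLinearGroup (Fin n) F := ((j.out : N) : ProjectiveSpecialLinearGroup (Fin n) F) with ht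
      show (s⁻¹ * t) * pr (Fin n) F z = pr (Fin n) F z * (s⁻¹ * t)
      have h4 : t * pr (Fin n) F z = s * pr (Fin n) F z * s⁻¹ * t := by
        rw [h3', inv_mul_cancel_right]
      rw [mul_assoc, h4]
      group
    · intro i
      obtain ⟨k, hk⟩ := hyN _ (i.out).2
      set s : ProjectiveSpecialLinearGroup (Fin n) F := ((i.out : N) : ProjectiveSpecialLinearGroup (Fin n) F) with hs
      show toEnd n F (y s * z * (y s)⁻¹) * toEnd n F z = toEnd n F z * toEnd n F (y s * z * (y s)⁻¹)
      rw [hk, ← map_mul, ← map_mul, ← _root_.zpow_add_one, ← _root_.zpow_one_add, add_comm]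
    · intro i
      set s : ProjectiveSpecialLinearGroup (Fin n) F := ((i.out : N) : ProjectiveSpecialLinearGroup (Fin n) F) with hs
      refine ⟨⟨toEnd n F (y s), toEnd n F (y s)⁻¹, ?_, ?_⟩, ?_⟩
      · rw [← map_mul, mul_inv_cancel, map_one]
      · rw [← map_mul, inv_mul_cancel, map_one]
      · show toEnd n F (y s * z * (y s)⁻¹) = toEnd n F (y s) * toEnd n F z * toEnd n F (y s)⁻¹
        rw [map_mul, map_mul]
  · -- the centraliser acts freely on the points
    rw [← Nat.card_eq_fintype_card, ← Projectivization.card_of_finrank F (Fin n → F) hfr]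
    have hn0 : 0 < n := by omega
    let v : Fin n → F := Pi.single ⟨0, hn0⟩ 1
    have hv : v ≠ 0 := by
      intro h0
      have := congrFun h0 ⟨0, hn0⟩
      simp [v] at this
    have hinv : ∀ s, toEnd n F (y s) v ≠ 0 := by
      intro s h0
      apply hv
      have h1 : toEnd n F (y s)⁻¹ (toEnd n F (y s) v) = v := by
        rw [← Module.End.mul_apply, ← map_mul, inv_mul_cancel, map_one, Module.End.one_apply]
      rw [← h1, h0, map_zero]
    have : Finite (Projectivization F (Fin n → F)) := inferInstance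
    refine Nat.card_le_card_of_injective
      (fun s : C => Projectivization.mk F (toEnd n F (y s) v) (hinv s)) ?_
    intro s t hst
    obtain ⟨a, ha⟩ := (Projectivization.mk_eq_mk_iff' F _ _ _ _).1 hst
    -- `a • y t v = y s v`
    by_cases h0 : toEnd n F (y s) - a • toEnd n F (y t) = 0
    · apply Subtype.ext
      have h1 : (y s).1 = a • (y t).1 := by
        apply Matrix.toLin'.injective
        rw [map_smul]
        exact sub_eq_zero.1 h0
      have h2 : (y t)⁻¹ * y s ∈ Subgroup.center (SpecialLinearGroup (Fin n) F) := by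
        rw [Subgroup.mem_center_iff]
        intro w
        apply Subtype.ext
        have h3 : ((y t)⁻¹ * y s).1 = a • (1 : Matrix (Fin n) (Fin n) F) := by
          show ((y t)⁻¹).1 * (y s).1 = _
          rw [h1, Matrix.mul_smul]
          congr 1
          have h4 := congrArg (fun g : SpecialLinearGroup (Fin n) F => g.1) (inv_mul_cancel (y t))
          exact h4
        show w.1 * ((y t)⁻¹ * y s).1 = ((y t)⁻¹ * y s).1 * w.1
        rw [h3, Matrix.mul_smul, Matrix.smul_mul, Matrix.mul_one, Matrix.one_mul]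
      have h5 := pr_eq_one.2 h2
      rw [map_mul, map_inv, hy, hy, inv_mul_eq_one] at h5
      exact h5.symm
    · exfalso
      have hcm : Commute (toEnd n F (y s) - a • toEnd n F (y t)) (toEnd n F z) :=
        (hyC s s.2).sub_left ((hyC t t.2).smul_left a)
      have h1 := injective_of_commute hr hgp hg1 hpn hpd hcm h0
      apply hv
      apply h1
      rw [map_zero, LinearMap.sub_apply, LinearMap.smul_apply, ha, sub_self]

end

end Cfsg.Agent.H679.Fpf
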